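import Cfsg.Prelude.Def_CaseTheorems
import Cfsg.Prelude.Def_Involutions
import Cfsg.Agent.LAE60.WSolvable

/-!
Maximal 2-local subgroups are strongly embedded when all 2-local subgroups are solvable of
characteristic two without section `S₄`.
-/

set_option autoImplicit false
set_option linter.unusedVariables false
set_option linter.unusedSectionVars false
set_option linter.style.haveILetI false

open Subgroup

namespace Cfsg.Agent.LAE60.W

open Cfsg.Agent.Fusion (cj mem_cj cj_inv_cj cj_cj_inv cj_mono cj_eq_iff_mem_normalizer cj_le_iff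
  lt_normalizer_inf isPGroup_cj cj_normalizer card_lt_card le_cj_iff)

variable {G : Type*} [Group G] [Finite G]

theorem stronglyEmbedded (hO : Cfsg.pCore 2 G = ⊥)
    (hloc : ∀ M : Subgroup G, Cfsg.IsTwoLocal M → Group.IsSolvable M ∧
      Cfsg.IsOfCharacteristicTwo ↥M ∧ ¬ Cfsg.Involves (Equiv.Perm (Fin 4)) ↥M)
    {M : Subgroup G} (hM : Cfsg.IsMaximalTwoLocal M) : Cfsg.IsStronglyEmbedded M := by
  classical
  haveI : Fact (Nat.Prime 2) := ⟨Nat.prime_two⟩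
  let Max : Subgroup G → Subgroup G → Prop := fun N T =>
    IsPGroup 2 T ∧ T ≤ N ∧ ∀ R : Subgroup G, R ≤ N → IsPGroup 2 R → T ≤ R → R = T
  have hex : ∀ (N R : Subgroup G), R ≤ N → IsPGroup 2 R → ∃ T, R ≤ T ∧ Max N T := by
    intro N R hRN hR
    obtain ⟨T, ⟨hT, hTN, hRT⟩, hmax⟩ := Set.Finite.exists_maximal
      (Set.toFinite {T : Subgroup G | IsPGroup 2 T ∧ T ≤ N ∧ R ≤ T}) ⟨R, hR, hRN, le_rfl⟩
    exact ⟨T, hRT, hT, hTN, fun R' h1 h2 h3 =>
      le_antisymm (hmax ⟨h2, h1, hRT.trans h3⟩ h3) h3⟩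
  have htwo : ∀ R : Subgroup G, IsPGroup 2 R → R ≠ ⊥ → Cfsg.IsTwoLocal (normalizer (R : Set G)) :=
    fun R hR h1 => ⟨R, hR, h1, rfl⟩
  have hWnorm : ∀ N T : Subgroup G, Cfsg.IsTwoLocal N → Max N T →
      N ≤ normalizer (WS T : Set G) := fun N T hN hT =>
    le_normalizer_WS (hloc N hN).1 (hloc N hN).2.2 (hloc N hN).2.1 hT.1 hT.2.1 hT.2.2
  have hWloc : ∀ T : Subgroup G, IsPGroup 2 T → T ≠ ⊥ →
      Cfsg.IsTwoLocal (normalizer (WS T : Set G)) := fun T hT h1 =>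
    htwo _ (hT.to_le (WS_le T)) (WS_ne_bot hT h1)
  obtain ⟨⟨R₀, hR₀, hR₀1, hMR₀⟩, hMmax⟩ := hM
  have hR₀M : R₀ ≤ M := hMR₀ ▸ le_normalizer
  have hne : ∀ T, Max M T → T ≠ ⊥ := by
    intro T hT hb
    have := hT.2.2 R₀ hR₀M hR₀ (hb ▸ bot_le)
    exact hR₀1 (this.trans hb)
  have hWM : ∀ T, Max M T → normalizer (WS T : Set G) = M := fun T hT =>
    hMmax _ (hWloc T hT.1 (hne T hT)) (hWnorm M T ⟨R₀, hR₀, hR₀1, hMR₀⟩ hT)
  have hgrow : ∀ {T R : Subgroup G}, IsPGroup 2 R → T < R →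
      ∃ R' : Subgroup G, T < R' ∧ R' ≤ R ∧ R' ≤ normalizer (T : Set G) := fun hR h =>
    ⟨_, lt_normalizer_inf hR h, inf_le_left, inf_le_right⟩
  -- Sylow subgroups of `M` are Sylow in `G`
  have hsyl : ∀ T, Max M T → Max ⊤ T := by
    intro T hT
    refine ⟨hT.1, le_top, fun R _ hR hle => ?_⟩
    by_contra h
    obtain ⟨R', h1, h2, h3⟩ := hgrow hR (lt_of_le_of_ne hle (Ne.symm h))
    have h4 : R' ≤ M := hWM T hT ▸ h3.trans (normalizer_le_normalizer_WS T)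
    exact h1.ne (hT.2.2 R' h4 (hR.to_le h2) h1.le).symm
  -- normalisers of 2-subgroups of `M` lie in `M`
  have hkey : ∀ R : Subgroup G, IsPGroup 2 R → R ≠ ⊥ → R ≤ M →
      normalizer (R : Set G) ≤ M := by
    by_contra hcon
    push Not at hcon
    obtain ⟨R₁, hR₁, hR₁1, hR₁M, hR₁n⟩ := hcon
    set S : Set (Subgroup G) := {T | ∃ R : Subgroup G, IsPGroup 2 R ∧ R ≠ ⊥ ∧ R ≤ M ∧
      ¬ normalizer (R : Set G) ≤ M ∧ IsPGroup 2 T ∧ T ≤ normalizer (R : Set G) ∧ T ≤ M} with hS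
    obtain ⟨T, hTS, hmax⟩ := Set.Finite.exists_maximalFor (fun T : Subgroup G => Nat.card T) S
      (Set.toFinite S) ⟨R₁, R₁, hR₁, hR₁1, hR₁M, hR₁n, hR₁, le_normalizer, hR₁M⟩
    have hbig : ∀ T', T' ∈ S → T ≤ T' → T' = T := fun T' h hle => by
      by_contra hne'
      have hlt := card_lt_card (lt_of_le_of_ne hle (Ne.symm hne'))
      have hle' : Nat.card T' ≤ Nat.card T := hmax h hlt.le
      omega
    obtain ⟨R, hR, hR1, hRM, hRn, hTp, hTR, hTM⟩ := hTS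
    have hRT : R ≤ T := by
      have h := hbig (T ⊔ R) ⟨R, hR, hR1, hRM, hRn, hTp.to_sup_of_normal_right' hR hTR,
        sup_le hTR le_normalizer, sup_le hTM hRM⟩ le_sup_left
      exact h ▸ le_sup_right
    have hT1 : T ≠ ⊥ := fun h => hR1 (le_bot_iff.1 (h ▸ hRT))
    by_cases hTmax : Max M T
    · refine hRn ((hWnorm _ T (htwo R hR hR1) ⟨hTp, hTR, fun R' h1 h2 h3 =>
        (hsyl T hTmax).2.2 R' le_top h2 h3⟩).trans (hWM T hTmax).le)
    obtain ⟨T', hTT', hT'⟩ := hex M T hTM hTp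
    have hlt : T < T' := lt_of_le_of_ne hTT' fun e => hTmax (e ▸ hT')
    obtain ⟨T₂, h1, h2, h3⟩ := hgrow hT'.1 hlt
    have hlarge : ∀ R' : Subgroup G, IsPGroup 2 R' → R' ≠ ⊥ → R' ≤ M →
        T₂ ≤ normalizer (R' : Set G) → normalizer (R' : Set G) ≤ M := by
      intro R' hR' hR'1 hR'M hle
      by_contra hn
      exact h1.ne (hbig T₂ ⟨R', hR', hR'1, hR'M, hn, hT'.1.to_le h2, hle, h2.trans hT'.2.1⟩
        h1.le).symm
    have hNT : normalizer (T : Set G) ≤ M := hlarge T hTp hT1 hTM h3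
    have hTN : Max (normalizer (R : Set G)) T := by
      refine ⟨hTp, hTR, fun R' h4 h5 h6 => ?_⟩
      by_contra hne'
      obtain ⟨R'', h7, h8, h9⟩ := hgrow h5 (lt_of_le_of_ne h6 (Ne.symm hne'))
      exact h7.ne (hbig R'' ⟨R, hR, hR1, hRM, hRn, h5.to_le h8, h8.trans h4, h9.trans hNT⟩
        h7.le).symm
    refine hRn ((hWnorm _ T (htwo R hR hR1) hTN).trans ?_)
    exact hlarge _ (hTp.to_le (WS_le T)) (WS_ne_bot hTp hT1) ((WS_le T).trans hTM)
      (h3.trans (normalizer_le_normalizer_WS T))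
  obtain ⟨T₀, hR₀T, hT₀⟩ := hex M R₀ hR₀M hR₀
  refine ⟨?_, ?_, ?_⟩
  · intro htop
    haveI : R₀.Normal := normalizer_eq_top_iff.1 (hMR₀ ▸ htop)
    exact hR₀1 (le_bot_iff.1 (hO ▸ Cores.le_pCore inferInstance hR₀))
  · obtain ⟨n, hn⟩ := IsPGroup.iff_card.1 hR₀
    have h2 : 2 ∣ Nat.card R₀ := by
      rw [hn]
      rcases n with _ | n
      · exact absurd (card_eq_one.1 (by rw [hn, pow_zero])) hR₀1
      · exact dvd_pow_self 2 n.succ_ne_zero
    exact even_iff_two_dvd.2 (h2.trans (card_dvd_of_le hR₀M))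
  intro g hg
  rw [← Nat.not_even_iff_odd]
  intro heven
  set I := M ⊓ cj g M with hI
  obtain ⟨⟨t, ht⟩, ht2⟩ := exists_prime_orderOf_dvd_card' (G := ↥I) 2 (even_iff_two_dvd.1 heven)
  have htp : IsPGroup 2 (zpowers t) := IsPGroup.of_card (n := 1) (by
    rw [Nat.card_zpowers, pow_one, ← ht2, ← Subgroup.orderOf_coe])
  obtain ⟨R, htR, hR, hRI, hRmax⟩ := hex I (zpowers t) (zpowers_le.2 ht) htp
  have hR1 : R ≠ ⊥ := fun h => by
    have : t = 1 := mem_bot.1 (h ▸ htR (mem_zpowers t))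
    rw [← Subgroup.orderOf_coe, show ((⟨t, ht⟩ : ↥I) : G) = t from rfl, this, orderOf_one] at ht2
    omega
  have hRM : R ≤ M := hRI.trans inf_le_left
  have hR'M : cj g⁻¹ R ≤ M := cj_le_iff.2 (by rw [inv_inv]; exact hRI.trans inf_le_right)
  have hR'p : IsPGroup 2 (cj g⁻¹ R) := isPGroup_cj hR _
  have hR'1 : cj g⁻¹ R ≠ ⊥ := fun h => hR1 (by rw [← cj_cj_inv g R, h, cj, Subgroup.map_bot])
  have hN1 := hkey R hR hR1 hRM
  have hN2 : normalizer (R : Set G) ≤ cj g M := by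
    rw [le_cj_iff, cj_normalizer]
    exact hkey _ hR'p hR'1 hR'M
  have hRMax : Max M R := by
    refine ⟨hR, hRM, fun R' h1 h2 h3 => ?_⟩
    by_contra hne'
    obtain ⟨R'', h4, h5, h6⟩ := hgrow h2 (lt_of_le_of_ne h3 (Ne.symm hne'))
    exact h4.ne (hRmax R'' (le_inf (h6.trans hN1) (h6.trans hN2)) (h2.to_le h5) h4.le).symm
  have hR'Max : Max M (cj g⁻¹ R) := by
    refine ⟨hR'p, hR'M, fun R' h1 h2 h3 => ?_⟩
    have := (hsyl R hRMax).2.2 (cj g R') le_top (isPGroup_cj h2 g)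
      (by rw [← cj_cj_inv g R]; exact cj_mono g h3)
    rw [← this, cj_inv_cj]
  have hgM : cj g⁻¹ M = M := by
    have h := hWM _ hR'Max
    rw [← cj_WS, ← cj_normalizer, hWM R hRMax] at h
    exact h
  have hgn : g ∈ normalizer (M : Set G) := by
    rw [cj_eq_iff_mem_normalizer] at hgM
    simpa using inv_mem hgM
  apply hg
  set P := Cfsg.pCoreOf 2 M with hP
  have hP1 : P ≠ ⊥ := fun h => hR₀1 (le_bot_iff.1 (h ▸ le_pCoreOf hR₀M
    (by rw [hMR₀]) hR₀))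
  have := hMmax (normalizer (P : Set G)) (htwo P (pCoreOf_isPGroup M) hP1) (le_normalizer_pCoreOf M)
  rw [← this]
  exact normalizer_le_normalizer_pCoreOf M hgn

end Cfsg.Agent.LAE60.W
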